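import Cfsg.Agent.Lib.Helper35.SuzOrd.X1.Chk0

namespace Cfsg.Agent.Lib.Helper35.SuzOrd.X1

open Cfsg.Agent.Lib.Helper35

noncomputable def reach2 : ReachData Suz22880.pt 22879 [[0], [1], [2], [3], [4]] 0 280 where
  sl := sl2
  hsl := rfl
  ot := ot2
  big := 20
  hchk := q2u1
  hcnt := m2n0
theorem fix2 : ∀ s ∈ ([[0], [1], [2], [3]] : List (List Nat)), pwalk Suz22880.pt s 0 = 0 := by decide +kernel
noncomputable def reach3 : ReachData Suz22880.pt 22879 [[0], [1], [2], [3]] 371 2160 where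
  sl := sl3
  hsl := rfl
  ot := ot3
  big := 20
  hchk := q3u1
  hcnt := m3n0
theorem fix3 : ∀ s ∈ ([] : List (List Nat)), pwalk Suz22880.pt s 371 = 371 := by decide +kernel
theorem yfix0 : ∀ i, i < 22880 → pwalk Suz22880.pt yl0.W i = i := fun i hi => fix_of_leaves' [yl0] 22880 y0u76 yl0.W (by simp) i hi
noncomputable def orbData : OrbData Suz22880.permData where
  sl := Suz22880.sl
  hsl := rfl
  ot := ot
  db := 5
  rep := rep
  hchk := allBelow_of_forall _ _ ou35
theorem ocnt0 : countBelow (fun j => Nat.beq (orbData.lab j) 0) 22880 = 1 := l0n0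
theorem ocnt1 : countBelow (fun j => Nat.beq (orbData.lab j) 1) 22880 = 486 := l1n0
theorem ocnt2 : countBelow (fun j => Nat.beq (orbData.lab j) 2) 22880 = 8505 := l2n0
theorem ocnt3 : countBelow (fun j => Nat.beq (orbData.lab j) 3) 22880 = 13608 := l3n0
theorem ocnt4 : countBelow (fun j => Nat.beq (orbData.lab j) 4) 22880 = 280 := l4n0

end Cfsg.Agent.Lib.Helper35.SuzOrd.X1
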